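import Mathlib
import Cfsg.Prelude.Def_GeometricClasses
import Cfsg.Agent.H889.TensorPow

/-!
Non-maximality of the tensor wreath stabiliser in characteristic two, from a space `S` of "gamma matrices"
on one factor: the stabiliser is contained in the normaliser of the space `W = ∑ slot i S`.
-/

set_option autoImplicit false
set_option linter.unusedSectionVars false

namespace Cfsg.Agent.H889

open Matrix Cfsg.Geo QuadraticMap
open scoped MatrixGroups

variable {F : Type*} [Field F] {k t : ℕ}

theorem omegaGL_le {κ : Type} [Fintype κ] [DecidableEq κ] (Q : (κ → F) → F) :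
    omegaGL Q ≤ Cfsg.isometryGroup F Q :=
  Subgroup.map_subtype_le _

/-- The normaliser of a space of matrices. -/
def matNormalizer {κ : Type} [Fintype κ] [DecidableEq κ] (W : Submodule F (Matrix κ κ F)) :
    Subgroup (GL κ F) where
  carrier := {g | ∀ w, w ∈ W ↔ g.val * w * (g⁻¹).val ∈ W}
  mul_mem' {a b} ha hb := by
    intro w
    rw [hb w, ha, Units.val_mul, _root_.mul_inv_rev, Units.val_mul]
    constructor <;> intro h <;> simpa [mul_assoc] using h
  one_mem' := by intro w; simp
  inv_mem' {a} ha := by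
    intro w
    have h := ha ((a⁻¹).val * w * a.val)
    rw [inv_inv, h]
    constructor <;> intro h' <;> simpa [mul_assoc, ← Units.val_mul] using h'

theorem mem_matNormalizer_iff {κ : Type} [Fintype κ] [DecidableEq κ] (W : Submodule F (Matrix κ κ F))
    (g : GL κ F) : g ∈ matNormalizer W ↔ ∀ w, w ∈ W ↔ g.val * w * (g⁻¹).val ∈ W := Iff.rfl

/-- The space `∑ slot i S`. -/
def slotSum (t : ℕ) (S : Submodule F (Matrix (Fin k) (Fin k) F)) :
    Submodule F (Matrix (Fin t → Fin k) (Fin t → Fin k) F) where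
  carrier := {w | ∃ A : Fin t → Matrix (Fin k) (Fin k) F, (∀ i, A i ∈ S) ∧ w = ∑ i, slot i (A i)}
  add_mem' := by
    rintro _ _ ⟨A, hA, rfl⟩ ⟨B, hB, rfl⟩
    refine ⟨fun i => A i + B i, fun i => S.add_mem (hA i) (hB i), ?_⟩
    rw [← Finset.sum_add_distrib]
    exact Finset.sum_congr rfl fun i _ => (slot_add i _ _).symm
  zero_mem' := ⟨fun _ => 0, fun _ => S.zero_mem, by
    rw [Finset.sum_eq_zero]
    intro i _
    have := slot_smul i (0 : F) (0 : Matrix (Fin k) (Fin k) F)
    rwa [zero_smul, zero_smul] at this⟩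
  smul_mem' := by
    rintro c _ ⟨A, hA, rfl⟩
    refine ⟨fun i => c • A i, fun i => S.smul_mem c (hA i), ?_⟩
    rw [Finset.smul_sum]
    exact Finset.sum_congr rfl fun i _ => (slot_smul i c _).symm

theorem slot_zero (i : Fin t) : slot i (0 : Matrix (Fin k) (Fin k) F) = 0 := by
  have := slot_smul i (0 : F) (0 : Matrix (Fin k) (Fin k) F)
  rwa [zero_smul, zero_smul] at this

theorem mem_slotSum {S : Submodule F (Matrix (Fin k) (Fin k) F)}
    {w : Matrix (Fin t → Fin k) (Fin t → Fin k) F} :
    w ∈ slotSum t S ↔ ∃ A : Fin t → Matrix (Fin k) (Fin k) F, (∀ i, A i ∈ S) ∧ w = ∑ i, slot i (A i) :=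
  Iff.rfl

theorem slot_mem_slotSum {S : Submodule F (Matrix (Fin k) (Fin k) F)} (i : Fin t)
    {A : Matrix (Fin k) (Fin k) F} (hA : A ∈ S) : slot i A ∈ slotSum t S := by
  refine ⟨Function.update (fun _ => 0) i A, ?_, ?_⟩
  · intro j
    by_cases h : j = i
    · subst h; simpa using hA
    · rw [Function.update_of_ne h]; exact S.zero_mem
  · rw [Finset.sum_eq_single i]
    · rw [Function.update_self]
    · intro j _ hj
      rw [Function.update_of_ne hj, slot_zero]
    · intro h; exact absurd (Finset.mem_univ i) h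

/-- Conjugation of a slot matrix by a monomial element. -/
theorem IsMonomialOn.mul_slot {g : GL (Fin t → Fin k) F} {gs : Fin t → GL (Fin k) F}
    {σ : Equiv.Perm (Fin t)} (hg : IsMonomialOn g gs σ) (i : Fin t) (A : Matrix (Fin k) (Fin k) F) :
    g.val * slot i A = slot (σ⁻¹ i) ((gs (σ⁻¹ i)).val * A * ((gs (σ⁻¹ i))⁻¹).val) * g.val := by
  apply matrix_ext_tp
  intro xs
  rw [← Matrix.mulVec_mulVec, ← Matrix.mulVec_mulVec, slot_mulVec_tp, hg, hg, slot_mulVec_tp]
  congr 1
  funext j
  by_cases h : j = σ⁻¹ i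
  · subst h
    have hσ : σ (σ⁻¹ i) = i := σ.apply_symm_apply i
    rw [Function.update_self, hσ, Function.update_self, ← Matrix.mulVec_mulVec,
      ← Matrix.mulVec_mulVec, Matrix.mulVec_mulVec _ ((gs (σ⁻¹ i))⁻¹).val, ← Units.val_mul,
      inv_mul_cancel, Units.val_one, Matrix.one_mulVec]
  · have hσ : σ j ≠ i := by
      intro h'
      apply h
      rw [← h']
      exact (perm_inv_apply_self σ j).symm
    rw [Function.update_of_ne h, Function.update_of_ne hσ]

/-- The data on one factor. -/
structure GammaData (f : (Fin k → F) → (Fin k → F) → F) (S : Submodule F (Matrix (Fin k) (Fin k) F)) :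
    Prop where
  sq : ∀ A ∈ S, ∃ α : F, A * A = α • (1 : Matrix (Fin k) (Fin k) F)
  adj : ∀ A ∈ S, ∀ x y, f (A *ᵥ x) y = f x (A *ᵥ y)
  norm : ∀ g : GL (Fin k) F, (∃ l : F, l ≠ 0 ∧ ∀ x y, f (g.val *ᵥ x) (g.val *ᵥ y) = l * f x y) →
    ∀ A ∈ S, g.val * A * (g⁻¹).val ∈ S
  clif : ∀ A ∈ S, (∃ α : F, A = α • (1 : Matrix (Fin k) (Fin k) F)) ∨
    ∃ B : Matrix (Fin k) (Fin k) F, A * B + B * A = 1
  elts : ∃ A₁ ∈ S, ∃ A₂ ∈ S, ∃ B ∈ S, A₁ * A₁ = 1 ∧ A₂ * A₂ = 0 ∧ B * B = 1 ∧
    ∃ (p l m p' q' : Fin k), p' ≠ q' ∧ A₂ q' p' = 1 ∧ A₂ p' p' = 0 ∧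
      (A₁ * (B * A₁ * B)) l p * (A₁ + B * A₁ * B) m p ≠
        (A₁ * (B * A₁ * B)) m p * (A₁ + B * A₁ * B) l p


/-- A bilinear form is determined by its values on pure tensors. -/
theorem bilin_ext_tp {g h : ((Fin t → Fin k) → F) → ((Fin t → Fin k) → F) → F}
    (hg : IsBilinearForm g) (hh : IsBilinearForm h)
    (H : ∀ xs ys : Fin t → (Fin k → F), g (tp xs) (tp ys) = h (tp xs) (tp ys)) (x y) :
    g x y = h x y := by
  rw [form_eq_sum_gram g hg, form_eq_sum_gram h hh]
  refine Finset.sum_congr rfl fun a _ => Finset.sum_congr rfl fun b _ => ?_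
  rw [gramMatrix, gramMatrix, single_eq_tp, single_eq_tp, H]

/-- A quadratic form is determined by its polar form and its values on the standard basis. -/
theorem quad_ext {κ : Type} [Fintype κ] [DecidableEq κ] {Q Q' : (κ → F) → F}
    (hs : ∀ (c : F) (v : κ → F), Q (c • v) = c ^ 2 * Q v)
    (hs' : ∀ (c : F) (v : κ → F), Q' (c • v) = c ^ 2 * Q' v)
    (hp : ∀ x y, polar Q x y = polar Q' x y)
    (hb : ∀ a, Q (Pi.single a 1) = Q' (Pi.single a 1)) (x : κ → F) : Q x = Q' x := by
  have hx : x = ∑ a, x a • (Pi.single a (1 : F) : κ → F) := by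
    funext i
    simp [Finset.sum_apply, Pi.single_apply]
  have key : ∀ s : Finset κ, Q (∑ a ∈ s, x a • (Pi.single a (1 : F) : κ → F)) =
      Q' (∑ a ∈ s, x a • (Pi.single a (1 : F) : κ → F)) := by
    intro s
    induction s using Finset.induction_on with
    | empty =>
      have h1 := hs 0 0
      have h2 := hs' 0 0
      simp at h1 h2
      simp [h1, h2]
    | insert a s ha ih =>
      rw [Finset.sum_insert ha, map_add_Q Q, map_add_Q Q', ih, hs, hs', hb, hp]
  rw [hx]
  exact key _

/-- In characteristic two the square of an element of `slotSum t S` is scalar. -/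
theorem slotSum_sq (h11 : (1 : F) + 1 = 0) {S : Submodule F (Matrix (Fin k) (Fin k) F)}
    (hS : ∀ A ∈ S, ∃ α : F, A * A = α • (1 : Matrix (Fin k) (Fin k) F))
    {w : Matrix (Fin t → Fin k) (Fin t → Fin k) F} (hw : w ∈ slotSum t S) :
    ∃ α : F, w * w = α • 1 := by
  obtain ⟨A, hA, rfl⟩ := hw
  have key : ∀ s : Finset (Fin t), ∃ α : F, (∑ i ∈ s, slot i (A i)) * (∑ i ∈ s, slot i (A i)) =
      α • (1 : Matrix (Fin t → Fin k) (Fin t → Fin k) F) := by
    intro s
    induction s using Finset.induction_on with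
    | empty => exact ⟨0, by simp⟩
    | insert a s ha ih =>
      obtain ⟨α, hα⟩ := ih
      obtain ⟨β, hβ⟩ := hS (A a) (hA a)
      refine ⟨β + α, ?_⟩
      rw [Finset.sum_insert ha, add_mul, mul_add, mul_add, hα, slot_mul, hβ, slot_smul_one]
      have hc : (∑ i ∈ s, slot i (A i)) * slot a (A a) = slot a (A a) * ∑ i ∈ s, slot i (A i) := by
        rw [Finset.sum_mul, Finset.mul_sum]
        refine Finset.sum_congr rfl fun i hi => ?_
        exact slot_comm (fun h : i = a => ha (h ▸ hi)) _ _
      rw [hc]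
      have h2 : slot a (A a) * ∑ i ∈ s, slot i (A i) + slot a (A a) * ∑ i ∈ s, slot i (A i) = 0 := by
        rw [← two_smul F, show (2 : F) = 0 by rw [← one_add_one_eq_two]; exact h11, zero_smul]
      rw [add_smul]
      set X := slot a (A a) * ∑ i ∈ s, slot i (A i)
      calc β • (1 : Matrix (Fin t → Fin k) (Fin t → Fin k) F) + X + (X + α • 1)
          = β • 1 + (X + X) + α • 1 := by abel
        _ = β • 1 + α • 1 := by rw [h2, add_zero]
  exact key Finset.univ

/-- An element of square one of a space all of whose elements have scalar squares normalises the space. -/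
theorem mem_matNormalizer_of_sq {κ : Type} [Fintype κ] [DecidableEq κ] (W : Submodule F (Matrix κ κ F))
    (hW : ∀ w ∈ W, ∃ α : F, w * w = α • (1 : Matrix κ κ F)) (g : GL κ F) (hg : g.val ∈ W)
    (hgg : g.val * g.val = 1) : g ∈ matNormalizer W := by
  have hinv : (g⁻¹).val = g.val := by
    have h : g⁻¹ = g := by
      rw [inv_eq_iff_mul_eq_one]
      apply Units.ext
      rw [Units.val_mul, hgg, Units.val_one]
    rw [h]
  have key : ∀ w ∈ W, g.val * w * g.val ∈ W := by
    intro w hw
    obtain ⟨α, hα⟩ := hW _ (W.add_mem hg hw)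
    obtain ⟨β, hβ⟩ := hW w hw
    rw [add_mul, mul_add, mul_add, hgg, hβ] at hα
    have h1 : g.val * w * g.val = (α - 1 - β) • g.val - w := by
      have h2 : g.val * w = (α - 1 - β) • (1 : Matrix κ κ F) - w * g.val := by
        rw [sub_smul, sub_smul, ← hα, one_smul]
        abel
      rw [h2, sub_mul, mul_assoc, hgg, mul_one, Matrix.smul_mul, one_mul]
    rw [h1]
    exact W.sub_mem (W.smul_mem _ hg) hw
  rw [mem_matNormalizer_iff]
  intro w
  rw [hinv]
  refine ⟨key w, fun h => ?_⟩
  have h2 := key _ h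
  have h3 : g.val * (g.val * w * g.val) * g.val = w := by
    rw [mul_assoc, mul_assoc, mul_assoc, hgg, mul_one, ← mul_assoc, hgg, one_mul]
  rwa [h3] at h2

/-- Elements of `slotSum t S` are self-adjoint for the tensor power form. -/
theorem slotSum_adj {f : (Fin k → F) → (Fin k → F) → F}
    {S : Submodule F (Matrix (Fin k) (Fin k) F)}
    (hS : ∀ A ∈ S, ∀ x y, f (A *ᵥ x) y = f x (A *ᵥ y))
    {p : ((Fin t → Fin k) → F) → ((Fin t → Fin k) → F) → F} (hp : IsBilinearForm p) {c : F}
    (hpt : ∀ xs ys : Fin t → (Fin k → F), p (tp xs) (tp ys) = c * ∏ i, f (xs i) (ys i))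
    {w : Matrix (Fin t → Fin k) (Fin t → Fin k) F} (hw : w ∈ slotSum t S) (x y) :
    p (w *ᵥ x) y = p x (w *ᵥ y) := by
  obtain ⟨A, hA, rfl⟩ := hw
  have hsingle : ∀ i (x y), p (slot i (A i) *ᵥ x) y = p x (slot i (A i) *ᵥ y) := by
    intro i x y
    have hg : IsBilinearForm (fun x y => p (slot i (A i) *ᵥ x) y) :=
      ⟨fun x y v => by rw [Matrix.mulVec_add, hp.add_left],
       fun c x v => by rw [Matrix.mulVec_smul, hp.smul_left],
       fun v x y => hp.add_right _ _ _, fun c v x => hp.smul_right _ _ _⟩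
    have hh : IsBilinearForm (fun x y => p x (slot i (A i) *ᵥ y)) :=
      ⟨fun x y v => hp.add_left _ _ _, fun c x v => hp.smul_left _ _ _,
       fun v x y => by rw [Matrix.mulVec_add, hp.add_right],
       fun c x v => by rw [Matrix.mulVec_smul, hp.smul_right]⟩
    refine bilin_ext_tp hg hh (fun xs ys => ?_) x y
    rw [slot_mulVec_tp, slot_mulVec_tp, hpt, hpt]
    congr 1
    refine Finset.prod_congr rfl fun j _ => ?_
    by_cases h : j = i
    · subst h
      rw [Function.update_self, Function.update_self, hS _ (hA j)]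
    · rw [Function.update_of_ne h, Function.update_of_ne h]
  have h0l : ∀ v, p 0 v = 0 := fun v => by
    have := hp.smul_left 0 0 v
    simpa using this
  have h0r : ∀ v, p v 0 = 0 := fun v => by
    have := hp.smul_right 0 v 0
    simpa using this
  have key : ∀ s : Finset (Fin t), p ((∑ i ∈ s, slot i (A i)) *ᵥ x) y =
      p x ((∑ i ∈ s, slot i (A i)) *ᵥ y) := by
    intro s
    induction s using Finset.induction_on with
    | empty => rw [Finset.sum_empty, Matrix.zero_mulVec, Matrix.zero_mulVec, h0l, h0r]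
    | insert a s ha ih =>
      rw [Finset.sum_insert ha, Matrix.add_mulVec, Matrix.add_mulVec, hp.add_left, hp.add_right,
        ih, hsingle]
  exact key _

/-- `1 ⊗ A₁ ⊗ 1 + 1 ⊗ A₂ ⊗ 1` of square one is an isometry. -/
theorem gamma_isometry {Q : ((Fin t → Fin k) → F) → F} (hQ : IsNondegenerateQuadraticForm Q)
    {f : (Fin k → F) → (Fin k → F) → F} (hf : IsSymplecticForm f) {c : F}
    (hpol : ∀ xs ys : Fin t → (Fin k → F), polar Q (tp xs) (tp ys) = c * ∏ i, f (xs i) (ys i))
    (hpure : ∀ xs : Fin t → (Fin k → F), Q (tp xs) = 0)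
    {S : Submodule F (Matrix (Fin k) (Fin k) F)}
    (hadj : ∀ A ∈ S, ∀ x y, f (A *ᵥ x) y = f x (A *ᵥ y))
    (halt : 3 ≤ t ∨ ∀ A ∈ S, ∀ x, f (A *ᵥ x) x = 0)
    {i₁ i₂ : Fin t} (hi : i₁ ≠ i₂) {A₁ A₂ : Matrix (Fin k) (Fin k) F} (h1 : A₁ ∈ S) (h2 : A₂ ∈ S)
    (hw : (slot i₁ A₁ + slot i₂ A₂) * (slot i₁ A₁ + slot i₂ A₂) = 1) (x : (Fin t → Fin k) → F) :
    Q ((slot i₁ A₁ + slot i₂ A₂) *ᵥ x) = Q x := by
  have hmem : slot i₁ A₁ + slot i₂ A₂ ∈ slotSum t S :=
    (slotSum t S).add_mem (slot_mem_slotSum i₁ h1) (slot_mem_slotSum i₂ h2)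
  have hsa := fun x y => slotSum_adj hadj hQ.polar_bilinear hpol hmem x y
  refine quad_ext (Q := fun x => Q ((slot i₁ A₁ + slot i₂ A₂) *ᵥ x)) (Q' := Q) ?_ hQ.smul ?_ ?_ x
  · intro c v
    rw [Matrix.mulVec_smul, hQ.smul]
  · intro x y
    have : polar (fun x => Q ((slot i₁ A₁ + slot i₂ A₂) *ᵥ x)) x y =
        polar Q ((slot i₁ A₁ + slot i₂ A₂) *ᵥ x) ((slot i₁ A₁ + slot i₂ A₂) *ᵥ y) := by
      simp only [polar, Matrix.mulVec_add]
    rw [this, hsa, Matrix.mulVec_mulVec, hw, Matrix.one_mulVec]
  · intro a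
    rw [single_eq_tp, hpure, Matrix.add_mulVec, slot_mulVec_tp, slot_mulVec_tp, map_add_Q Q, hpure,
      hpure, hpol]
    have hzero : ∏ i, f (Function.update (fun i => Pi.single (a i) (1 : F)) i₁
        (A₁ *ᵥ Pi.single (a i₁) 1) i) (Function.update (fun i => Pi.single (a i) (1 : F)) i₂
        (A₂ *ᵥ Pi.single (a i₂) 1) i) = 0 := by
      rcases halt with ht | halt
      · obtain ⟨j, hj1, hj2⟩ : ∃ j : Fin t, j ≠ i₁ ∧ j ≠ i₂ := by
          by_contra hcon
          push Not at hcon
          have : (Finset.univ : Finset (Fin t)) ⊆ {i₁, i₂} := by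
            intro j _
            by_cases h : j = i₁
            · simp [h]
            · simp [hcon j h]
          have h3 := Finset.card_le_card this
          rw [Finset.card_univ, Fintype.card_fin] at h3
          have h4 := Finset.card_le_two (a := i₁) (b := i₂)
          omega
        apply Finset.prod_eq_zero (Finset.mem_univ j)
        rw [Function.update_of_ne hj1, Function.update_of_ne hj2, hf.alternating]
      · apply Finset.prod_eq_zero (Finset.mem_univ i₁)
        rw [Function.update_self, Function.update_of_ne hi]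
        exact halt A₁ h1 _
    rw [hzero]
    ring

/-- The elements of the standard tensor wreath group preserving the form normalise `slotSum t S`. -/
theorem wreath_le_matNormalizer {Q : ((Fin t → Fin k) → F) → F}
    {f : (Fin k → F) → (Fin k → F) → F} (hf : IsSymplecticForm f) (hk : 0 < k) {c : F} (hc : c ≠ 0)
    (hpol : ∀ xs ys : Fin t → (Fin k → F), polar Q (tp xs) (tp ys) = c * ∏ i, f (xs i) (ys i))
    {S : Submodule F (Matrix (Fin k) (Fin k) F)}
    (hnorm : ∀ g : GL (Fin k) F,
      (∃ l : F, l ≠ 0 ∧ ∀ x y, f (g.val *ᵥ x) (g.val *ᵥ y) = l * f x y) →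
      ∀ A ∈ S, g.val * A * (g⁻¹).val ∈ S) :
    tensorWreathStandard k t F ⊓ omegaGL Q ≤ matNormalizer (slotSum t S) := by
  classical
  -- one direction for every element
  have key : ∀ g ∈ tensorWreathStandard k t F ⊓ omegaGL Q, ∀ w ∈ slotSum t S,
      g.val * w * (g⁻¹).val ∈ slotSum t S := by
    rintro g ⟨hg1, hg2⟩ w hw
    obtain ⟨gs, σ, hg⟩ := exists_isMonomialOn hg1
    have hiso : g ∈ Cfsg.isometryGroup F Q := omegaGL_le Q hg2
    rw [mem_isometryGroup_iff'] at hiso
    have hpiso : ∀ x y, polar Q (g.val *ᵥ x) (g.val *ᵥ y) = polar Q x y := by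
      intro x y
      simp only [polar, ← Matrix.mulVec_add, hiso]
    -- a pair with non-zero value
    obtain ⟨u, v, huv⟩ : ∃ u v, f u v ≠ 0 := by
      obtain ⟨⟨x, hx⟩, -⟩ := hf.nondegenerate (Pi.single ⟨0, hk⟩ 1) (by
        intro h
        have := congrFun h ⟨0, hk⟩
        simp at this)
      exact ⟨_, _, hx⟩
    have hprod : ∀ xs ys : Fin t → (Fin k → F),
        ∏ i, f ((gs i).val *ᵥ xs i) ((gs i).val *ᵥ ys i) = ∏ i, f (xs i) (ys i) := by
      intro xs ys
      have h := hpiso (tp (fun i => xs (σ⁻¹ i))) (tp (fun i => ys (σ⁻¹ i)))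
      rw [hg, hg, hpol, hpol] at h
      have h2 := mul_left_cancel₀ hc h
      simp only [perm_inv_apply_self] at h2
      rw [h2]
      exact Equiv.prod_comp σ⁻¹ (fun i => f (xs i) (ys i))
    have hsim : ∀ i, ∃ l : F, l ≠ 0 ∧ ∀ x y, f ((gs i).val *ᵥ x) ((gs i).val *ᵥ y) = l * f x y := by
      intro i
      set α := ∏ j ∈ Finset.univ.erase i, f ((gs j).val *ᵥ u) ((gs j).val *ᵥ v) with hα
      set β := ∏ j ∈ Finset.univ.erase i, f u v with hβ
      have hβ0 : β ≠ 0 := Finset.prod_ne_zero_iff.2 fun _ _ => huv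
      have hxy : ∀ x y, f ((gs i).val *ᵥ x) ((gs i).val *ᵥ y) * α = f x y * β := by
        intro x y
        have h := hprod (Function.update (fun _ => u) i x) (Function.update (fun _ => v) i y)
        rw [← Finset.mul_prod_erase Finset.univ _ (Finset.mem_univ i),
          ← Finset.mul_prod_erase Finset.univ _ (Finset.mem_univ i)] at h
        simp only [Function.update_self] at h
        have e1 : ∏ j ∈ Finset.univ.erase i, f ((gs j).val *ᵥ Function.update (fun _ => u) i x j)
            ((gs j).val *ᵥ Function.update (fun _ => v) i y j) = α := by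
          refine Finset.prod_congr rfl fun j hj => ?_
          rw [Function.update_of_ne (Finset.ne_of_mem_erase hj),
            Function.update_of_ne (Finset.ne_of_mem_erase hj)]
        have e2 : ∏ j ∈ Finset.univ.erase i, f (Function.update (fun _ => u) i x j)
            (Function.update (fun _ => v) i y j) = β := by
          refine Finset.prod_congr rfl fun j hj => ?_
          rw [Function.update_of_ne (Finset.ne_of_mem_erase hj),
            Function.update_of_ne (Finset.ne_of_mem_erase hj)]
        rw [e1, e2] at h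
        exact h
      have hα0 : α ≠ 0 := by
        intro h0
        have := hxy u v
        rw [h0, mul_zero] at this
        exact (mul_ne_zero huv hβ0) this.symm
      refine ⟨β / α, div_ne_zero hβ0 hα0, fun x y => ?_⟩
      have := hxy x y
      field_simp
      linear_combination this
    obtain ⟨A, hA, rfl⟩ := hw
    rw [Finset.mul_sum, Finset.sum_mul]
    apply Submodule.sum_mem
    intro i _
    rw [hg.mul_slot, mul_assoc, ← Units.val_mul, mul_inv_cancel, Units.val_one, mul_one]
    exact slot_mem_slotSum _ (hnorm _ (hsim _) _ (hA i))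
  intro g hg
  rw [mem_matNormalizer_iff]
  intro w
  refine ⟨key g hg w, fun h => ?_⟩
  have h2 := key g⁻¹ (Subgroup.inv_mem _ hg) _ h
  rw [inv_inv] at h2
  have h3 : (g⁻¹).val * (g.val * w * (g⁻¹).val) * g.val = w := by
    have e1 : (g⁻¹).val * g.val = 1 := by rw [← Units.val_mul, inv_mul_cancel, Units.val_one]
    rw [mul_assoc, mul_assoc, mul_assoc, e1, mul_one, ← mul_assoc, e1, one_mul]
  rwa [h3] at h2

theorem matrix_rank_add_le {κ : Type} [Fintype κ] [DecidableEq κ] (A B : Matrix κ κ F) :
    (A + B).rank ≤ A.rank + B.rank := by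
  have hsub : LinearMap.range (A + B).mulVecLin ≤
      LinearMap.range A.mulVecLin ⊔ LinearMap.range B.mulVecLin := by
    rintro _ ⟨x, rfl⟩
    rw [Matrix.mulVecLin_apply, Matrix.add_mulVec]
    exact Submodule.add_mem_sup ⟨x, rfl⟩ ⟨x, rfl⟩
  exact (Submodule.finrank_mono hsub).trans (Submodule.finrank_add_le_finrank_add_finrank _ _)

/-- The 2 × 2 minors of a pure tensor vanish. -/
theorem tp_minor (ys : Fin t → (Fin k → F)) {i₁ i₂ : Fin t} (hi : i₁ ≠ i₂) (a : Fin t → Fin k)
    (l m p q : Fin k) :
    tp ys (Function.update (Function.update a i₁ l) i₂ p) *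
      tp ys (Function.update (Function.update a i₁ m) i₂ q) =
    tp ys (Function.update (Function.update a i₁ m) i₂ p) *
      tp ys (Function.update (Function.update a i₁ l) i₂ q) := by
  simp only [tp_apply]
  rw [← Finset.prod_mul_distrib, ← Finset.prod_mul_distrib]
  refine Finset.prod_congr rfl fun j _ => ?_
  by_cases h2 : j = i₂
  · subst h2
    simp only [Function.update_self]
  · rw [Function.update_of_ne h2, Function.update_of_ne h2, Function.update_of_ne h2,
      Function.update_of_ne h2]
    by_cases h1 : j = i₁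
    · subst h1
      simp only [Function.update_self]
      ring
    · rw [Function.update_of_ne h1, Function.update_of_ne h1]

/-- The rank of an element of `slotSum t S` of small rank is zero. -/
theorem slotSum_eq_zero_of_rank {S : Submodule F (Matrix (Fin k) (Fin k) F)}
    (hclif : ∀ A ∈ S, (∃ α : F, A = α • (1 : Matrix (Fin k) (Fin k) F)) ∨
      ∃ B : Matrix (Fin k) (Fin k) F, A * B + B * A = 1)
    (hcomm : (1 : F) + 1 = 0)
    {d : Matrix (Fin t → Fin k) (Fin t → Fin k) F} (hd : d ∈ slotSum t S)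
    (hr : 2 * d.rank < Fintype.card (Fin t → Fin k)) : d = 0 := by
  obtain ⟨A, hA, rfl⟩ := hd
  by_cases hsc : ∀ i, ∃ α : F, A i = α • (1 : Matrix (Fin k) (Fin k) F)
  · choose α hα using hsc
    have h1 : ∑ i, slot i (A i) = (∑ i, α i) • (1 : Matrix (Fin t → Fin k) (Fin t → Fin k) F) := by
      rw [Finset.sum_smul]
      exact Finset.sum_congr rfl fun i _ => by rw [hα, slot_smul_one]
    rw [h1] at hr ⊢
    by_cases h0 : ∑ i, α i = 0
    · rw [h0, zero_smul]
    · exfalso
      have h2 : IsUnit ((∑ i, α i) • (1 : Matrix (Fin t → Fin k) (Fin t → Fin k) F)) := by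
        rw [Matrix.isUnit_iff_isUnit_det, Matrix.det_smul, Matrix.det_one, mul_one]
        exact (IsUnit.mk0 _ h0).pow _
      rw [Matrix.rank_of_isUnit _ h2] at hr
      omega
  · push Not at hsc
    obtain ⟨j, hj⟩ := hsc
    obtain ⟨B, hB⟩ : ∃ B, A j * B + B * A j = 1 := by
      rcases hclif _ (hA j) with ⟨α, hα⟩ | h
      · exact absurd hα (hj α)
      · exact h
    exfalso
    set d := ∑ i, slot i (A i) with hd
    have h1 : d * slot j B + slot j B * d = 1 := by
      rw [hd, Finset.sum_mul, Finset.mul_sum, ← Finset.sum_add_distrib,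
        Finset.sum_eq_single j]
      · rw [slot_mul, slot_mul, ← slot_add, hB, slot_one]
      · intro i _ hij
        rw [slot_comm hij, ← two_smul F, ← one_add_one_eq_two, hcomm, zero_smul]
      · intro h; exact absurd (Finset.mem_univ j) h
    have h2 : (1 : Matrix (Fin t → Fin k) (Fin t → Fin k) F).rank ≤ d.rank + d.rank := by
      rw [← h1]
      refine (matrix_rank_add_le _ _).trans ?_
      exact add_le_add (Matrix.rank_mul_le_left _ _) (Matrix.rank_mul_le_right _ _)
    rw [Matrix.rank_one] at h2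
    omega

/-- **Non-maximality of the tensor wreath stabiliser from gamma matrices, characteristic two.** -/
theorem nonmax_of_gamma (h11 : (1 : F) + 1 = 0) (hcard : 9 ≤ Fintype.card (Fin t → Fin k))
    (ht : 2 ≤ t) {Q : ((Fin t → Fin k) → F) → F} (hQ : IsNondegenerateQuadraticForm Q)
    {f : (Fin k → F) → (Fin k → F) → F} (hf : IsSymplecticForm f) {c : F} (hc : c ≠ 0)
    (hpol : ∀ xs ys : Fin t → (Fin k → F), polar Q (tp xs) (tp ys) = c * ∏ i, f (xs i) (ys i))
    (hpure : ∀ xs : Fin t → (Fin k → F), Q (tp xs) = 0)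
    {S : Submodule F (Matrix (Fin k) (Fin k) F)} (hS : GammaData f S)
    (halt : 3 ≤ t ∨ ∀ A ∈ S, ∀ x, f (A *ᵥ x) x = 0) :
    ∃ K : Subgroup (GL (Fin t → Fin k) F),
      tensorWreathStandard k t F ⊓ omegaGL Q < K ∧ K < omegaGL Q := by
  classical
  obtain ⟨A₁, hA₁, A₂, hA₂, B, hB, h1, h2, hBB, p, l, m, p', q', hpq, hq', hp', hminor⟩ := hS.elts
  have hk : 0 < k := lt_of_le_of_lt (Nat.zero_le _) p.2
  let i₁ : Fin t := ⟨0, by omega⟩
  let i₂ : Fin t := ⟨1, by omega⟩
  have hi : i₁ ≠ i₂ := by simp [i₁, i₂]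
  have h20 : ∀ X : Matrix (Fin t → Fin k) (Fin t → Fin k) F, X + X = 0 := fun X => by
    rw [← two_smul F, ← one_add_one_eq_two, h11, zero_smul]
  -- the two isometries
  set w : Matrix (Fin t → Fin k) (Fin t → Fin k) F := slot i₁ A₁ + slot i₂ A₂ with hw
  have hww : w * w = 1 := by
    rw [hw, add_mul, mul_add, mul_add, slot_mul, slot_mul, h1, h2, slot_one, slot_zero, add_zero,
      slot_comm hi, add_assoc, h20, add_zero]
  have hwB : slot i₁ B * slot i₁ B = 1 := by rw [slot_mul, hBB, slot_one]
  let wG : GL (Fin t → Fin k) F := ⟨w, w, hww, hww⟩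
  let bG : GL (Fin t → Fin k) F := ⟨slot i₁ B, slot i₁ B, hwB, hwB⟩
  have hwS : w ∈ slotSum t S :=
    (slotSum t S).add_mem (slot_mem_slotSum i₁ hA₁) (slot_mem_slotSum i₂ hA₂)
  have hwiso : wG ∈ Cfsg.isometryGroup F Q := by
    rw [mem_isometryGroup_iff']
    exact gamma_isometry hQ hf hpol hpure hS.adj halt hi hA₁ hA₂ hww
  have hbiso : bG ∈ Cfsg.isometryGroup F Q := by
    rw [mem_isometryGroup_iff']
    have h := gamma_isometry hQ hf hpol hpure hS.adj halt hi hB (S.zero_mem)
      (by rw [slot_zero, add_zero]; exact hwB)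
    rw [slot_zero, add_zero] at h
    exact h
  have hsq : ∀ w ∈ slotSum t S, ∃ α : F, w * w = α • (1 : Matrix (Fin t → Fin k) (Fin t → Fin k) F) :=
    fun w hw => slotSum_sq h11 hS.sq hw
  have hwN : wG ∈ matNormalizer (slotSum t S) := mem_matNormalizer_of_sq _ hsq wG hwS hww
  have hbN : bG ∈ matNormalizer (slotSum t S) :=
    mem_matNormalizer_of_sq _ hsq bG (slot_mem_slotSum i₁ hB) hwB
  set r : GL (Fin t → Fin k) F := wG * bG * wG⁻¹ * bG⁻¹ with hr
  have hrΩ : r ∈ omegaGL Q := by
    rw [omegaGL_eq_commutator]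
    exact Subgroup.commutator_mem_commutator hwiso hbiso
  have hrN : r ∈ matNormalizer (slotSum t S) :=
    Subgroup.mul_mem _ (Subgroup.mul_mem _ (Subgroup.mul_mem _ hwN hbN) (Subgroup.inv_mem _ hwN))
      (Subgroup.inv_mem _ hbN)
  have hrval : r.val = slot i₁ (A₁ * (B * A₁ * B)) + slot i₁ (A₁ + B * A₁ * B) * slot i₂ A₂ := by
    have e1 : r.val = w * (slot i₁ B * w * slot i₁ B) := by
      change w * slot i₁ B * w * slot i₁ B = _
      simp only [mul_assoc]
    have e2 : slot i₁ B * w * slot i₁ B = slot i₁ (B * A₁ * B) + slot i₂ A₂ := by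
      rw [hw, mul_add, add_mul, slot_mul, slot_mul, slot_comm hi B A₂, mul_assoc (slot i₂ A₂), hwB,
        mul_one]
    rw [e1, e2, hw, add_mul, mul_add, mul_add, slot_mul, slot_mul, h2, slot_zero, add_zero,
      slot_add, add_mul, slot_comm hi.symm, add_assoc]
  refine ⟨omegaGL Q ⊓ matNormalizer (slotSum t S), ⟨le_inf inf_le_right
    (wreath_le_matNormalizer hf hk hc hpol hS.norm), ?_⟩, ⟨inf_le_left, ?_⟩⟩
  · -- `r` is not in the tensor wreath group
    intro hle
    obtain ⟨gs, σ, hg⟩ := exists_isMonomialOn (hle ⟨hrΩ, hrN⟩).1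
    let a : Fin t → Fin k := fun _ => p
    let xs : Fin t → (Fin k → F) :=
      Function.update (Function.update (fun _ => Pi.single p 1) i₁ (Pi.single p 1)) i₂
        (Pi.single p' 1)
    have hx1 : xs i₁ = Pi.single p 1 := by
      simp only [xs]
      rw [Function.update_of_ne hi, Function.update_self]
    have hx2 : xs i₂ = Pi.single p' 1 := by
      simp only [xs]
      rw [Function.update_self]
    have hxo : ∀ j, j ≠ i₁ → j ≠ i₂ → xs j = Pi.single p 1 := by
      intro j hj1 hj2
      simp only [xs]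
      rw [Function.update_of_ne hj2, Function.update_of_ne hj1]
    have hval : ∀ u v : Fin k, (r.val *ᵥ tp xs) (Function.update (Function.update a i₁ u) i₂ v) =
        (A₁ * (B * A₁ * B)) u p * (if v = p' then 1 else 0) +
          (A₁ + B * A₁ * B) u p * A₂ v p' := by
      intro u v
      rw [hrval, Matrix.add_mulVec, ← Matrix.mulVec_mulVec, slot_mulVec_tp, slot_mulVec_tp,
        slot_mulVec_tp, Function.update_of_ne hi, hx1, hx2, Matrix.mulVec_single_one,
        Matrix.mulVec_single_one, Matrix.mulVec_single_one, Pi.add_apply, tp_apply, tp_apply]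
      have hrest : ∀ (Z : Fin t → (Fin k → F)), (∀ j, j ≠ i₁ → j ≠ i₂ → Z j = Pi.single p 1) →
          ∏ i, Z i (Function.update (Function.update a i₁ u) i₂ v i) = Z i₁ u * Z i₂ v := by
        intro Z hZ
        rw [← Finset.mul_prod_erase Finset.univ _ (Finset.mem_univ i₁),
          ← Finset.mul_prod_erase (Finset.univ.erase i₁) _ (Finset.mem_erase.2 ⟨hi.symm, Finset.mem_univ i₂⟩),
          Function.update_self, Function.update_of_ne hi, Function.update_self,
          Finset.prod_eq_one, mul_one]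
        intro j hj
        have hj2 : j ≠ i₂ := Finset.ne_of_mem_erase hj
        have hj1 : j ≠ i₁ := Finset.ne_of_mem_erase (Finset.mem_of_mem_erase hj)
        rw [hZ j hj1 hj2, Function.update_of_ne hj2, Function.update_of_ne hj1]
        simp [a]
      rw [hrest _ (fun j hj1 hj2 => by rw [Function.update_of_ne hj1, hxo j hj1 hj2]),
        hrest _ (fun j hj1 hj2 => by
          rw [Function.update_of_ne hj1, Function.update_of_ne hj2, hxo j hj1 hj2])]
      rw [Function.update_self, Function.update_of_ne hi.symm, hx2, Function.update_self,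
        Function.update_of_ne hi.symm, Function.update_self]
      rw [Pi.single_apply]
      rfl
    have hmin := tp_minor (fun i => (gs i).val *ᵥ xs (σ i)) hi a l m p' q'
    rw [← hg xs, hval, hval, hval, hval, if_pos rfl, if_neg hpq.symm, hp', hq'] at hmin
    apply hminor
    linear_combination hmin
  · -- `Ω` does not normalise `slotSum t S`
    intro hle
    -- the singular vectors
    obtain ⟨l₀, hl₀⟩ : ∃ l₀ : Fin k, l₀ ≠ p' := ⟨q', hpq.symm⟩
    let a : Fin t → Fin k := fun _ => p'
    let b : Fin t → Fin k := Function.update a i₁ q'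
    have hb1 : b i₁ = q' := by simp [b]
    have hbo : ∀ j, j ≠ i₁ → b j = p' := fun j hj => by simp [b, a, hj]
    set u : (Fin t → Fin k) → F := Pi.single a 1 with hu
    set v : (Fin t → Fin k) → F := Pi.single b 1 with hv
    have hQu : Q u = 0 := by rw [hu, single_eq_tp]; exact hpure _
    have hQv : Q v = 0 := by rw [hv, single_eq_tp]; exact hpure _
    have huv : polar Q u v = 0 := by
      rw [hu, hv, single_eq_tp, single_eq_tp, hpol, Finset.prod_eq_zero (Finset.mem_univ i₂), mul_zero]
      rw [hbo i₂ hi.symm]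
      exact hf.alternating _
    obtain ⟨g, hgΩ, hg⟩ := exists_siegel_omegaGL Q hQ (by omega) u v hQu hQv huv
    have hgN : g ∈ matNormalizer (slotSum t S) := (hle hgΩ).2
    -- the rank of `g - 1`
    have hrank : (g.val - 1).rank ≤ 2 := by
      have hsub : LinearMap.range (g.val - 1).mulVecLin ≤ Submodule.span F {u, v} := by
        rintro _ ⟨x, rfl⟩
        rw [Matrix.mulVecLin_apply, Matrix.sub_mulVec, Matrix.one_mulVec, hg, add_sub_cancel_left]
        exact Submodule.sub_mem _
          (Submodule.smul_mem _ _ (Submodule.subset_span (by simp)))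
          (Submodule.smul_mem _ _ (Submodule.subset_span (by simp)))
      refine (Submodule.finrank_mono hsub).trans ?_
      have := finrank_span_le_card (R := F) ({u, v} : Set ((Fin t → Fin k) → F))
      refine this.trans ?_
      rw [Set.toFinset_insert, Set.toFinset_singleton]
      exact Finset.card_le_two
    have hginv : g.val * (g⁻¹).val = 1 := by rw [← Units.val_mul, mul_inv_cancel, Units.val_one]
    have hcommute : ∀ w ∈ slotSum t S, g.val * w = w * g.val := by
      intro w hw
      have hw' := (hgN w).1 hw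
      have hd := (slotSum t S).sub_mem hw' hw
      have hdeq : g.val * w * (g⁻¹).val - w =
          ((g.val - 1) * w - w * (g.val - 1)) * (g⁻¹).val := by
        have e0 : (g.val - 1) * w - w * (g.val - 1) = g.val * w - w * g.val := by
          rw [sub_mul, mul_sub, one_mul, mul_one]
          abel
        rw [e0, sub_mul, mul_assoc w, hginv, mul_one]
      have hdr : (g.val * w * (g⁻¹).val - w).rank ≤ 4 := by
        rw [hdeq]
        refine (Matrix.rank_mul_le_left _ _).trans ?_
        rw [sub_eq_add_neg]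
        refine (matrix_rank_add_le _ _).trans ?_
        have e1 : ((g.val - 1) * w).rank ≤ 2 := (Matrix.rank_mul_le_left _ _).trans hrank
        have e2 : (-(w * (g.val - 1))).rank ≤ 2 := by
          rw [← mul_neg]
          refine (Matrix.rank_mul_le_right _ _).trans ?_
          have : -(g.val - 1) = (-1 : F) • (g.val - 1) := by rw [neg_one_smul]
          rw [this]
          refine le_trans ?_ hrank
          have e3 : (-1 : F) • (g.val - 1) = ((-1 : F) • (1 : Matrix _ _ F)) * (g.val - 1) := by
            rw [Matrix.smul_mul, one_mul]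
          rw [e3]
          exact Matrix.rank_mul_le_right _ _
        omega
      have hd0 := slotSum_eq_zero_of_rank hS.clif h11 hd (by omega)
      have h3 : g.val * w * (g⁻¹).val = w := sub_eq_zero.1 hd0
      have hginv' : (g⁻¹).val * g.val = 1 := by
        rw [← Units.val_mul, inv_mul_cancel, Units.val_one]
      calc g.val * w = g.val * w * ((g⁻¹).val * g.val) := by rw [hginv', mul_one]
        _ = g.val * w * (g⁻¹).val * g.val := by rw [mul_assoc, mul_assoc, mul_assoc]
        _ = w * g.val := by rw [h3]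
    have hc2 := hcommute _ (slot_mem_slotSum i₂ hA₂)
    -- evaluate
    obtain ⟨⟨x, hx⟩, -⟩ := hQ.nondegenerate u (by
      intro h
      have := congrFun h a
      simp [hu] at this)
    have hx' : polar Q u x ≠ 0 := by rwa [QuadraticMap.polar_comm]
    have h := congrArg (fun M : Matrix (Fin t → Fin k) (Fin t → Fin k) F => M *ᵥ x) hc2
    simp only [← Matrix.mulVec_mulVec] at h
    rw [hg, hg, Matrix.mulVec_add, Matrix.mulVec_sub, Matrix.mulVec_smul, Matrix.mulVec_smul] at h
    have h' := congrFun h (Function.update b i₂ q')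
    have hne1 : Function.update b i₂ q' ≠ a := by
      intro h0
      have := congrFun h0 i₂
      rw [Function.update_self] at this
      exact hpq this.symm
    have hne2 : Function.update b i₂ q' ≠ b := by
      intro h0
      have := congrFun h0 i₂
      rw [Function.update_self, hbo i₂ hi.symm] at this
      exact hpq this.symm
    have hsu : (slot i₂ A₂ *ᵥ u) (Function.update b i₂ q') = 0 := by
      rw [hu, single_eq_tp, slot_mulVec_tp, tp_apply]
      apply Finset.prod_eq_zero (Finset.mem_univ i₁)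
      rw [Function.update_of_ne hi, Function.update_of_ne hi, hb1]
      simp [a, hpq.symm]
    have hsv : (slot i₂ A₂ *ᵥ v) (Function.update b i₂ q') = 1 := by
      rw [hv, single_eq_tp, slot_mulVec_tp, tp_apply]
      apply Finset.prod_eq_one
      intro j _
      by_cases hj : j = i₂
      · subst hj
        rw [Function.update_self, Function.update_self, hbo _ hi.symm, Matrix.mulVec_single_one]
        exact hq'
      · rw [Function.update_of_ne hj, Function.update_of_ne hj]
        simp
    have hu0 : u (Function.update b i₂ q') = 0 := by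
      rw [hu, Pi.single_apply, if_neg hne1]
    have hv0 : v (Function.update b i₂ q') = 0 := by
      rw [hv, Pi.single_apply, if_neg hne2]
    simp only [Pi.add_apply, Pi.sub_apply, Pi.smul_apply, smul_eq_mul, hsu, hsv, hu0, hv0] at h'
    apply hx'
    linear_combination -h'

end Cfsg.Agent.H889
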